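import Cfsg.Agent.H187.ExcRank.Gen
import Cfsg.Agent.H62.PPChev
import Cfsg.Agent.H939.InstE6Tw
import Cfsg.Agent.H913.SubfieldMem
import Cfsg.Agent.KFacts.TwESix.Comb
import Cfsg.Agent.KFacts.RgdSL

/-!
# Elementary abelian sections of `E₆(q)`, `E₇(q)`, `E₈(q)`, `²E₆(q)` (helper187, task 1574)

* `e6_rank` : `q ^ 16`, `e7_rank` : `q ^ 27`, `e8_rank` : `q ^ 27`, `te6_rank'` : `q ^ 20`, `te6_rank` : `q ^ 14`.
-/

set_option autoImplicit false
set_option linter.unusedSectionVars false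

namespace Cfsg.Agent.H187.ExcRank

open CoxeterSystem Cfsg.Agent.ChevalleyStructure.CoxeterGeom Cfsg.Agent.Tits.Roots Cfsg.Agent.Tits.Core
  Cfsg.Agent.Tits.RootComb Cfsg.Agent.Nodes.Comb Cfsg.Agent.Nodes.Reps Cfsg.Agent.Nodes.BNOf
  Cfsg.Agent.Nodes.BNOf.RGD Cfsg.Agent.Nodes.Unique Cfsg.Agent.H190.Exc Cfsg.Agent.Nodes.StabComb
open Cfsg Cfsg.Lie Cfsg.Agent.ChevalleyStructure
open scoped commutatorElement

universe u

section Chev

open Cfsg.Agent.Nodes.RGDChev Cfsg.Agent.ChevalleyStructure.RootVec Cfsg.Agent.ChevalleyStructure.Elts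

variable {D : ChevalleyDatum} {l : ℕ} {M : CoxeterMatrix (Fin l)}

/-- the roots with coefficient 1 at `i` and 0 at the members of `J` -/
def Sel (D : ChevalleyDatum) (i : ℕ) (J : List ℕ) : List ℕ :=
  (List.range D.nroots).filter fun r => rt D r i = 1 ∧ ∀ k ∈ J, rt D r k = 0

theorem rank_of_sel (hp : IsType D l M) (h4 : ∀ i j, M i j ≠ 4) (h6 : ∀ i j, M i j ≠ 6) (i : Fin l)
    (J : List (Fin l)) (hT : ∀ r < D.nroots, 0 < rt D r i → (∀ k ∈ J, rt D r k = 0) → rt D r i = 1)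
    {F : Type u} [Field F] [Fintype F] {t k : ℕ} [Fact t.Prime] [CharP F t] (hS : SecRank ↥(D.group F) t k) :
    Fintype.card F ^ (Sel D i (J.map Fin.val)).length ≤ t ^ k := by
  classical
  have hW := finite_W hp M.toCoxeterSystem
  have R := rgd (K := F) hp M.toCoxeterSystem t
  set cs := M.toCoxeterSystem with hcs
  have hs : Cfsg.Agent.KFacts.RgdSL.SL cs hp.isCartan := fun _ _ hx hy =>
    Cfsg.Agent.Nodes.SimplyLaced.cpr_symm cs hp.isCartan h4 h6 hx hy
  set L := Sel D i (J.map Fin.val) with hL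
  have hLmem : ∀ r, r ∈ L ↔ r < D.nroots ∧ rt D r i = 1 ∧ ∀ k ∈ J, rt D r k = 0 := by
    intro r
    rw [hL, Sel, List.mem_filter, List.mem_range, decide_eq_true_eq]
    simp only [List.mem_map, forall_exists_index, and_imp, forall_apply_eq_imp_iff₂]
  have hLn : L.Nodup := List.nodup_range.filter _
  set s : Finset (Fin l → ℤ) := L.toFinset.image (vec D l) with hsdef
  have hsmem : ∀ x, x ∈ s ↔ IsRoot cs hp.isCartan x ∧ x i = 1 ∧ ∀ k ∈ J, x k = 0 := by
    intro x
    rw [hsdef, Finset.mem_image, isRoot_iff hp cs]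
    constructor
    · rintro ⟨r, hr, rfl⟩
      rw [List.mem_toFinset, hLmem] at hr
      exact ⟨⟨r, hr.1, rfl⟩, hr.2⟩
    · rintro ⟨⟨r, hr, rfl⟩, h1, h2⟩
      exact ⟨r, List.mem_toFinset.2 ((hLmem r).2 ⟨hr, h1, h2⟩), rfl⟩
  have hcard : s.card = L.length := by
    rw [hsdef, Finset.card_image_of_injOn, List.toFinset_card_of_nodup hLn]
    intro a ha b hb hab
    rw [Finset.mem_coe, List.mem_toFinset, hLmem] at ha hb
    exact vec_inj hp ha.1 hb.1 hab
  have hpos : (s : Set (Fin l → ℤ)) ⊆ Pos cs hp.isCartan := by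
    intro x hx
    obtain ⟨h1, h2, -⟩ := (hsmem x).1 (Finset.mem_coe.1 hx)
    exact ⟨h1, nonneg_of_pos_apply h1 (k := i) (by rw [h2]; norm_num)⟩
  have hup : ∀ x, IsRoot cs hp.isCartan x → 0 < x i → (∀ k ∈ J, x k = 0) → x i = 1 := by
    intro x hx h1 h2
    obtain ⟨r, hr, rfl⟩ := (isRoot_iff hp cs x).1 hx
    exact hT r hr h1 h2
  have hbt : ∀ x ∈ s, ∀ y ∈ s, ∀ z, Btwn cs hp.isCartan x y z → z ∈ s := by
    intro x hx y hy z hz
    obtain ⟨-, hx1, hx2⟩ := (hsmem x).1 hx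
    obtain ⟨-, hy1, hy2⟩ := (hsmem y).1 hy
    obtain ⟨hzr, m, a, b, hm, ha, hb, e⟩ := hz
    have hzJ : ∀ k ∈ J, z k = 0 := by
      intro k hk
      have h1 := congrFun e k
      simp only [Pi.smul_apply, Pi.add_apply, smul_eq_mul, hx2 k hk, hy2 k hk, mul_zero, add_zero] at h1
      exact (mul_eq_zero.1 h1).resolve_left hm.ne'
    have hz0 : 0 < z i := by
      have h1 := congrFun e i
      simp only [Pi.smul_apply, Pi.add_apply, smul_eq_mul, hx1, hy1, mul_one] at h1
      by_contra hcon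
      push Not at hcon
      nlinarith
    exact (hsmem z).2 ⟨hzr, hup z hzr hz0 hzJ, hzJ⟩
  have hmemX : ∀ {x : Fin l → ℤ}, x ∈ s → ∀ a ∈ (XV D l F x).subgroupOf (D.group F),
      ∃ r < D.nroots, ∃ c : F, (a : GL D.Idx F) = xG hp.inList r c ∧ vec D l r = x := by
    intro x hx a ha
    obtain ⟨r, hr, rfl⟩ := (isRoot_iff hp cs x).1 ((hsmem x).1 hx).1
    have h1 : (a : GL D.Idx F) ∈ XV D l F (vec D l r) := Subgroup.mem_subgroupOf.1 ha
    rw [XV_vec hp F hr, mem_rootSubgroup_iff hp.inList] at h1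
    obtain ⟨c, hc⟩ := h1
    exact ⟨r, hr, c, hc, rfl⟩
  have h1 := card_le_of_abelian R hS hpos (fun x hx y hy z hz => Finset.mem_coe.2
    (hbt x (Finset.mem_coe.1 hx) y (Finset.mem_coe.1 hy) z hz)) (fun x hx y hy a ha b hb => ?_)
    (fun x hx a ha => ?_)
  · have h2 : ∏ x ∈ s, Nat.card ↥((XV D l F x).subgroupOf (D.group F)) = Fintype.card F ^ s.card := by
      rw [← Finset.prod_const]
      exact Finset.prod_congr rfl fun x hx => H62.PPChev.card_X hp cs ((hsmem x).1 hx).1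
    rwa [h2, hcard] at h1
  · by_cases hxy : x = y
    · subst hxy
      obtain ⟨r, hr, c, hc, e1⟩ := hmemX hx a ha
      obtain ⟨r', hr', c', hc', e2⟩ := hmemX hx b hb
      have hrr : r = r' := vec_inj hp hr hr' (e1.trans e2.symm)
      subst hrr
      apply Subtype.ext
      rw [Subgroup.coe_mul, Subgroup.coe_mul, hc, hc', xG_add, xG_add, add_comm]
    · have hx' := (hsmem x).1 hx
      have hy' := (hsmem y).1 hy
      have hxy' : x ≠ -y := by
        intro h0
        have h2 := congrFun h0 i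
        rw [Pi.neg_apply, hx'.2.1, hy'.2.1] at h2
        norm_num at h2
      have h2 := R.comm x y hx'.1 hy'.1 hxy hxy' a ha b hb
      have h3 : btw cs hp.isCartan (fun x => (XV D l F x).subgroupOf (D.group F)) x y = ⊥ := by
        rw [eq_bot_iff]
        refine iSup_le ?_
        rintro ⟨z, hz⟩
        exfalso
        obtain ⟨-, h4⟩ := hs.btwn hx'.1 hy'.1 hxy hxy' hz
        have h5 := (hsmem z).1 (hbt x hx y hy z hz)
        have h6 := h5.2.1
        rw [h4, Pi.add_apply, hx'.2.1, hy'.2.1] at h6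
        norm_num at h6
      rw [h3, Subgroup.mem_bot, commutatorElement_eq_one_iff_mul_comm] at h2
      exact h2
  · obtain ⟨r, hr, c, hc, -⟩ := hmemX hx a ha
    apply Subtype.ext
    rw [SubgroupClass.coe_pow, hc]
    have h2 : ∀ m : ℕ, (xG hp.inList r c) ^ m = xG hp.inList r ((m : F) * c) := by
      intro m
      induction m with
      | zero => rw [pow_zero, Nat.cast_zero, zero_mul, xG_zero]
      | succ m ih => rw [pow_succ, ih, xG_add, Nat.cast_succ, add_mul, one_mul]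
    rw [h2, CharP.cast_eq_zero, zero_mul, xG_zero]
    rfl

theorem four6 : ∀ i j : Fin 6, CoxeterMatrix.E₆ i j ≠ 4 := by
  intro i
  fin_cases i <;> decide
theorem six6 : ∀ i j : Fin 6, CoxeterMatrix.E₆ i j ≠ 6 := by
  intro i
  fin_cases i <;> decide
theorem four7 : ∀ i j : Fin 7, CoxeterMatrix.E₇ i j ≠ 4 := by
  intro i
  fin_cases i <;> decide
theorem six7 : ∀ i j : Fin 7, CoxeterMatrix.E₇ i j ≠ 6 := by
  intro i
  fin_cases i <;> decide
theorem four8 : ∀ i j : Fin 8, CoxeterMatrix.E₈ i j ≠ 4 := by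
  intro i
  fin_cases i <;> decide
theorem six8 : ∀ i j : Fin 8, CoxeterMatrix.E₈ i j ≠ 6 := by
  intro i
  fin_cases i <;> decide
theorem tab6 : ∀ r < chevE6.nroots, 0 < rt chevE6 r 0 → rt chevE6 r 0 = 1 := by decide +kernel
theorem tab7 : ∀ r < chevE7.nroots, 0 < rt chevE7 r 6 → rt chevE7 r 6 = 1 := by decide +kernel
theorem tab8 : ∀ r < chevE8.nroots, 0 < rt chevE8 r 6 → rt chevE8 r 7 = 0 → rt chevE8 r 6 = 1 := by decide +kernel
theorem len6 : (Sel chevE6 0 []).length = 16 := by decide +kernel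
theorem len7 : (Sel chevE7 6 []).length = 27 := by decide +kernel
theorem len8 : (Sel chevE8 6 [7]).length = 27 := by decide +kernel

theorem e6_rank {F : Type u} [Field F] [Fintype F] {t k : ℕ} [Fact t.Prime] [CharP F t]
    (h : SecRank ↥(chevE6.group F) t k) : Fintype.card F ^ 16 ≤ t ^ k := by
  have h1 := rank_of_sel (D := chevE6) (l := 6) (M := CoxeterMatrix.E₆) (by simp [IsType, typeList]) four6 six6
    0 [] (fun r hr h0 _ => tab6 r hr h0) h
  have h2 : (Sel chevE6 ((0 : Fin 6) : ℕ) (([] : List (Fin 6)).map Fin.val)).length = 16 := len6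
  rwa [h2] at h1

theorem e7_rank {F : Type u} [Field F] [Fintype F] {t k : ℕ} [Fact t.Prime] [CharP F t]
    (h : SecRank ↥(chevE7.group F) t k) : Fintype.card F ^ 27 ≤ t ^ k := by
  have h1 := rank_of_sel (D := chevE7) (l := 7) (M := CoxeterMatrix.E₇) (by simp [IsType, typeList]) four7 six7
    6 [] (fun r hr h0 _ => tab7 r hr h0) h
  have h2 : (Sel chevE7 ((6 : Fin 7) : ℕ) (([] : List (Fin 7)).map Fin.val)).length = 27 := len7
  rwa [h2] at h1

theorem e8_rank {F : Type u} [Field F] [Fintype F] {t k : ℕ} [Fact t.Prime] [CharP F t]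
    (h : SecRank ↥(chevE8.group F) t k) : Fintype.card F ^ 27 ≤ t ^ k := by
  have h1 := rank_of_sel (D := chevE8) (l := 8) (M := CoxeterMatrix.E₈) (by simp [IsType, typeList]) four8 six8
    6 [7] (fun r hr h0 h1 => tab8 r hr h0 (h1 7 (List.mem_singleton.2 rfl))) h
  have h2 : (Sel chevE8 ((6 : Fin 8) : ℕ) (([7] : List (Fin 8)).map Fin.val)).length = 27 := len8
  rwa [h2] at h1

end Chev

section TwE

open Cfsg.Agent.Nodes Cfsg.Agent.Nodes.RGDTwE6 Cfsg.Agent.KFacts.TwESix.Comb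

/-- the highest root -/
def th : Fin 4 → ℤ := ![2, 3, 4, 2]

/-- the roots of level one -/
def lv : List (Fin 4 → ℤ) := rts.filter fun x => x 0 = 1

theorem th_mem : th ∈ rts := by decide +kernel
theorem th_long : bf th th = 4 := by decide +kernel
theorem level : ∀ x ∈ rts, 2 ≤ x 0 → x = th := by decide +kernel
theorem lv_nodup : lv.Nodup := by decide +kernel
theorem lv_sum : (lv.map fun x => if bf x x = 4 then 1 else 2).sum = 20 := by decide +kernel

/-- the order of a root group -/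
theorem le_card_X {K : Type u} [Field K] [Fintype K] {q : ℕ} {φ : K →+* K} (hφ : ∀ x, φ x = x ^ q)
    (hqq : ∀ t : K, (t ^ q) ^ q = t) (hK : Fintype.card K = q ^ 2) {W : Type*} [Group W]
    {cs : CoxeterSystem CoxeterMatrix.F₄ W} {z : Fin 4 → ℤ} (hz : IsRoot cs isCartan z) :
    q ^ (if bf z z = 4 then 1 else 2) ≤ Nat.card (X φ q z) := by
  have hQ : ∀ y ∈ rts, bf y y = RGDTwCoordE6.Qv y := by decide +kernel
  have hz' := hQ z ((mem_rts cs).1 hz)
  rcases RGDTwComE6.long_or_short hz with hl | hs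
  · have h1 : bf z z = 4 := by rw [hz']; exact hl
    rw [if_pos h1, pow_one]
    refine (H913.SubfieldMem.card_fixedSub hK).symm.le.trans ?_
    have hfix : ∀ a : ↥(H913.SubfieldMem.fixedSub hK), φ (a : K) = a := fun a => by
      rw [hφ]; exact (H913.SubfieldMem.mem_fixedSub hK _).1 a.2
    have hok : ∀ a : ↥(H913.SubfieldMem.fixedSub hK), RGDTwCoord.Ok chevE6 J RGDTwCoordE6.O φ z (a : K) := fun a =>
      RGDTwComE6.ok_long hz hl (hfix a)
    refine Nat.card_le_card_of_injective (fun a : ↥(H913.SubfieldMem.fixedSub hK) =>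
      (⟨RGDTwComE6.x φ q z (a : K), RGDTwActE6.x_mem hφ hqq hz (hok a)⟩ : ↥(X φ q z))) ?_
    intro a b hab
    exact Subtype.ext (RGDTwActE6.x_inj hφ hqq hz (hok a) (hok b) (congrArg Subtype.val hab))
  · have h1 : bf z z ≠ 4 := by
      rw [hz']
      have h2 : RGDTwCoordE6.Qv z = 2 := hs
      rw [h2]; norm_num
    rw [if_neg h1, ← hK, ← Nat.card_eq_fintype_card]
    have hok : ∀ a : K, RGDTwCoord.Ok chevE6 J RGDTwCoordE6.O φ z a := fun a => RGDTwComE6.ok_short hφ hqq hz hs a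
    refine Nat.card_le_card_of_injective (fun a : K =>
      (⟨RGDTwComE6.x φ q z a, RGDTwActE6.x_mem hφ hqq hz (hok a)⟩ : ↥(X φ q z))) ?_
    intro a b hab
    exact RGDTwActE6.x_inj hφ hqq hz (hok a) (hok b) (congrArg Subtype.val hab)

/-- **`²E₆(q)`** has a section of order `q ^ 20`. -/
theorem te6_rank' {K : Type u} [Field K] [Fintype K] {q : ℕ} (hq : IsPrimePow q) (hK : Fintype.card K = q ^ 2)
    {t k : ℕ} [Fact t.Prime] [CharP K t] (h : SecRank ↥(twistedE6 K q) t k) : q ^ 20 ≤ t ^ k := by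
  classical
  obtain ⟨φ, hφ, hqq⟩ := Cfsg.Agent.ChevalleyStructure.TwE6Basic.exists_frob hq hK
  have hW : Finite CoxeterMatrix.F₄.Group := finiteW CoxeterMatrix.F₄.toCoxeterSystem
  set cs := CoxeterMatrix.F₄.toCoxeterSystem with hcs
  have R := rgd cs hφ hqq t
  have hfin : Finite ↥(twistedE6 K q) := inferInstance
  have hmem : ∀ x, x ∈ insert th lv.toFinset ↔ IsRoot cs isCartan x ∧ 1 ≤ x 0 := by
    intro x
    rw [Finset.mem_insert, List.mem_toFinset, lv, List.mem_filter, decide_eq_true_eq, mem_rts cs]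
    constructor
    · rintro (rfl | ⟨h1, h2⟩)
      · exact ⟨th_mem, by decide⟩
      · exact ⟨h1, h2.ge⟩
    · rintro ⟨h1, h2⟩
      rcases h2.lt_or_eq with h3 | h3
      · exact Or.inl (level x h1 h3)
      · exact Or.inr ⟨h1, h3.symm⟩
  have hth : th ∉ lv.toFinset := by
    rw [List.mem_toFinset, lv, List.mem_filter]
    rintro ⟨-, h1⟩
    revert h1
    decide
  have hthr : IsRoot cs isCartan th := (mem_rts cs).2 th_mem
  have h1 := card_le_of_level R h hth (fun x hx => ?_) (fun x hx y hy z hz => ?_) (fun x hx y hy a ha b hb => ?_)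
    (fun x hx a ha => ?_)
  · have h2 : q ^ 20 ≤ ∏ x ∈ lv.toFinset, Nat.card (X φ q x) := by
      rw [← lv_sum, ← List.sum_toFinset _ lv_nodup, ← Finset.prod_pow_eq_pow_sum]
      refine Finset.prod_le_prod' fun x hx => ?_
      exact le_card_X hφ hqq hK ((hmem x).1 (Finset.mem_insert_of_mem hx)).1
    exact h2.trans h1
  · obtain ⟨h1, h2⟩ := (hmem x).1 (Finset.mem_coe.1 hx)
    exact ⟨h1, nonneg_of_pos_apply h1 (k := 0) (by omega)⟩
  · obtain ⟨-, hx2⟩ := (hmem x).1 (Finset.mem_coe.1 hx)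
    obtain ⟨-, hy2⟩ := (hmem y).1 (Finset.mem_coe.1 hy)
    obtain ⟨hzr, m, a, b, hm, ha, hb, e⟩ := hz
    refine Finset.mem_coe.2 ((hmem z).2 ⟨hzr, ?_⟩)
    have h1 := congrFun e 0
    simp only [Pi.smul_apply, Pi.add_apply, smul_eq_mul] at h1
    by_contra hcon
    push Not at hcon
    have h2 : z 0 ≤ 0 := by omega
    nlinarith
  · obtain ⟨hx1, hx2⟩ := (hmem x).1 hx
    obtain ⟨hy1, hy2⟩ := (hmem y).1 hy
    by_cases hxy : IsRoot cs isCartan (x + y)
    · have e : x + y = th := level _ ((mem_rts cs).1 hxy) (by rw [Pi.add_apply]; omega)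
      have hl : Cfsg.Agent.Nodes.RGDTwComE6.Lg (x + y) := by
        rw [e]
        unfold Cfsg.Agent.Nodes.RGDTwComE6.Lg
        decide +kernel
      have h3 := H939.InstE6Tw.X_comm_long hφ hqq hx1 hy1 hxy hl ha hb
      rwa [e] at h3
    · have hne : y ≠ -x := by
        rintro rfl
        rw [Pi.neg_apply] at hy2
        omega
      have h3 := H939.InstE6Tw.X_comm hφ hqq hx1 hy1 hxy hne ha hb
      rw [commutatorElement_eq_one_iff_mul_comm.2 h3]
      exact one_mem _
  · rw [H939.InstE6Tw.X_pow hφ hqq t ((hmem x).1 hx).1 ha]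
    exact one_mem _

theorem te6_rank {K : Type u} [Field K] [Fintype K] {q : ℕ} (hq : IsPrimePow q) (hK : Fintype.card K = q ^ 2)
    {t k : ℕ} [Fact t.Prime] [CharP K t] (h : SecRank ↥(twistedE6 K q) t k) : q ^ 14 ≤ t ^ k :=
  (Nat.pow_le_pow_right hq.pos (by norm_num)).trans (te6_rank' hq hK h)

end TwE

end Cfsg.Agent.H187.ExcRank
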